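import Mathlib
import Cfsg.Agent.Lib.Helper95.OFX.Defs
import Cfsg.Agent.Lib.Helper12.OHyp.EBlkOdd
import Cfsg.Agent.Lib.Helper97.OHyp.OddOmega
import Cfsg.Agent.Lib.Helper8.MinusReps

/-!
# OFX (S5977), package [DERODD]

`r` an odd prime `≠ p`, the order `i` of `q` mod `r` odd and `≤ d`: the block element
`x = fromBlocks A' 0 0 (A'⁻¹)ᵀ`, `A' = A ⊕ 1` with `A ∈ GL_i(F)`, `A ^ r = 1`, `A - 1` invertible,
lies in `Ω⁺_{2d}(F)`, is not scalar and has `rank (x - 1) = 2 i`, not divisible by `4`.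
-/

set_option autoImplicit false

namespace Cfsg.Agent.Lib.Helper3.OFX

open Matrix Cfsg.Agent.Lib.Helper95.OFX

universe u

/-- The abstract construction: from a block `M ∈ GL_i(F)` with `M ^ r = 1` and `M - 1` invertible,
`i` odd, `i ≤ d`. -/
theorem derang_of_block {F : Type u} [Field F] [Fintype F] (h2 : (2 : F) ≠ 0) (d r i : ℕ)
    (hr : r.Prime) (hr2 : r ≠ 2) (hio : Odd i) (hid : i ≤ d) (M : GL (Fin i) F) (hMr : M ^ r = 1)
    (hMdet : ((M : Matrix (Fin i) (Fin i) F) - 1).det ≠ 0) : Derang d F r := by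
  classical
  obtain ⟨e⟩ : Nonempty (Fin i ⊕ Fin (d - i) ≃ Fin d) :=
    ⟨finSumFinEquiv.trans (finCongr (by omega))⟩
  obtain ⟨A, hA⟩ : ∃ A : Matrix (Fin d) (Fin d) F, A = Matrix.reindexAlgEquiv F F e
      (Matrix.fromBlocks (M : Matrix (Fin i) (Fin i) F) 0 0 (1 : Matrix (Fin (d - i)) (Fin (d - i)) F)) :=
    ⟨_, rfl⟩
  obtain ⟨B, hB⟩ : ∃ B : Matrix (Fin d) (Fin d) F, B = Matrix.reindexAlgEquiv F F e
      (Matrix.fromBlocks ((M⁻¹ : GL (Fin i) F) : Matrix (Fin i) (Fin i) F) 0 0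
        (1 : Matrix (Fin (d - i)) (Fin (d - i)) F)) := ⟨_, rfl⟩
  have hMM : (M : Matrix (Fin i) (Fin i) F) * ((M⁻¹ : GL (Fin i) F) : Matrix (Fin i) (Fin i) F) = 1 := by
    rw [← Units.val_mul, mul_inv_cancel, Units.val_one]
  have hMM' : ((M⁻¹ : GL (Fin i) F) : Matrix (Fin i) (Fin i) F) * (M : Matrix (Fin i) (Fin i) F) = 1 := by
    rw [← Units.val_mul, inv_mul_cancel, Units.val_one]
  have hAB : A * B = 1 := by
    rw [hA, hB, ← map_mul, Matrix.fromBlocks_multiply]
    simp [Matrix.fromBlocks_one]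
  have hBA : B * A = 1 := by
    rw [hA, hB, ← map_mul, Matrix.fromBlocks_multiply]
    simp [Matrix.fromBlocks_one]
  have hAr : A ^ r = 1 := by
    have hpow : ∀ k : ℕ, (Matrix.fromBlocks (M : Matrix (Fin i) (Fin i) F) 0 0
        (1 : Matrix (Fin (d - i)) (Fin (d - i)) F)) ^ k =
        Matrix.fromBlocks ((M : Matrix (Fin i) (Fin i) F) ^ k) 0 0 1 := by
      intro k
      induction k with
      | zero => simp [Matrix.fromBlocks_one]
      | succ k ih =>
        rw [pow_succ, ih, Matrix.fromBlocks_multiply, pow_succ]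
        simp
    rw [hA, ← map_pow, hpow, ← Units.val_pow_eq_pow_val, hMr]
    simp [Matrix.fromBlocks_one]
  -- ranks
  have hrankA : (A - 1).rank = i := by
    have h1 : A - 1 = Matrix.reindexAlgEquiv F F e
        (Matrix.fromBlocks ((M : Matrix (Fin i) (Fin i) F) - 1) 0 0
          (0 : Matrix (Fin (d - i)) (Fin (d - i)) F)) := by
      have h3 : Matrix.fromBlocks ((M : Matrix (Fin i) (Fin i) F) - 1) 0 0
          (0 : Matrix (Fin (d - i)) (Fin (d - i)) F) =
          Matrix.fromBlocks (M : Matrix (Fin i) (Fin i) F) 0 0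
            (1 : Matrix (Fin (d - i)) (Fin (d - i)) F) - 1 := by
        ext (a | a) (b | b) <;> simp [Matrix.one_apply]
      rw [h3, map_sub, map_one, hA]
    rw [h1, Matrix.coe_reindexAlgEquiv, Matrix.rank_reindex,
      Cfsg.Agent.Lib.Helper8.MinusReps.rank_fromBlocks_diag, Matrix.rank_zero, add_zero,
      Matrix.rank_of_isUnit _ ((Matrix.isUnit_iff_isUnit_det _).2 (isUnit_iff_ne_zero.2 hMdet)),
      Fintype.card_fin]
  have hrankB : (B - 1).rank = i := by
    have h1 : B - 1 = (-B) * (A - 1) := by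
      rw [neg_mul, mul_sub, hBA, mul_one, neg_sub]
    have hBdet : IsUnit (-B).det := by
      have h3 : (-B) * (-A) = 1 := by rw [neg_mul_neg, hBA]
      have h4 := congrArg Matrix.det h3
      rw [Matrix.det_mul, Matrix.det_one] at h4
      exact IsUnit.of_mul_eq_one _ h4
    rw [h1, Matrix.rank_mul_eq_right_of_isUnit_det _ _ hBdet, hrankA]
  -- the element
  obtain ⟨M', hM'⟩ : ∃ M' : GL (Fin d) F, M' = ⟨A, B, hAB, hBA⟩ := ⟨_, rfl⟩
  have hM'v : (M' : Matrix (Fin d) (Fin d) F) = A := by rw [hM']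
  have hM'i : ((M'⁻¹ : GL (Fin d) F) : Matrix (Fin d) (Fin d) F) = B := by rw [hM']; rfl
  have hM'r : M' ^ r = 1 := by
    apply Units.ext
    rw [Units.val_pow_eq_pow_val, hM'v, hAr, Units.val_one]
  obtain ⟨x, hx⟩ : ∃ x : GL (OI d) F, x = Cfsg.Agent.Lib.Helper12.OHyp.hypGL M' := ⟨_, rfl⟩
  have hxv : (x : Matrix (OI d) (OI d) F) = Matrix.fromBlocks A 0 0 Bᵀ := by
    rw [hx, ← hM'v, ← hM'i]
    rfl
  have hxiso : x ∈ Cfsg.isometryGroup F (Cfsg.quadFormPlus d F) := by
    rw [hx]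
    exact Cfsg.Agent.Lib.Helper12.OHyp.hypGL_mem M'
  have hxr : x ^ r = 1 := by
    rw [hx]
    exact Cfsg.Agent.Lib.Helper12.OHyp.hypGL_pow M' r hM'r
  have hx1 : (x : Matrix (OI d) (OI d) F) - 1 = Matrix.fromBlocks (A - 1) 0 0 (B - 1)ᵀ := by
    rw [hxv]
    ext (a | a) (b | b) <;> simp [Matrix.one_apply, Matrix.transpose_apply]
  have hrank : ((x : Matrix (OI d) (OI d) F) - 1).rank = 2 * i := by
    rw [hx1, Cfsg.Agent.Lib.Helper8.MinusReps.rank_fromBlocks_diag, Matrix.rank_transpose, hrankA,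
      hrankB, two_mul]
  have hipos : 0 < i := hio.pos
  have hxne : x ≠ 1 := by
    intro h
    rw [h, Units.val_one, sub_self, Matrix.rank_zero] at hrank
    omega
  have : Fact r.Prime := ⟨hr⟩
  have hord : orderOf x = r := orderOf_eq_prime hxr hxne
  have hrodd : Odd r := hr.odd_of_ne_two hr2
  refine ⟨x, ?_, ?_, ?_, ?_⟩
  · exact Cfsg.Agent.Lib.Helper97.OHyp.pkgOddOmega F (OI d) (Cfsg.quadFormPlus d F)
      (Cfsg.Agent.Lib.Helper12.OHyp.nondeg_quadFormPlus d) h2 x hxiso (by rw [hord]; exact hrodd)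
  · rw [← Units.val_pow_eq_pow_val, hxr, Units.val_one]
  · intro z hz
    rw [hxv] at hz
    have hd : 0 < d := by omega
    have e1 : A = z • (1 : Matrix (Fin d) (Fin d) F) := by
      ext a b
      have h3 := congrFun (congrFun hz (Sum.inl a)) (Sum.inl b)
      simpa [Matrix.one_apply] using h3
    have e2 : B = z • (1 : Matrix (Fin d) (Fin d) F) := by
      ext a b
      have h3 := congrFun (congrFun hz (Sum.inr b)) (Sum.inr a)
      simp only [Matrix.fromBlocks_apply₂₂, Matrix.transpose_apply, Matrix.smul_apply,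
        Matrix.one_apply, Sum.inr.injEq, smul_eq_mul] at h3
      rw [h3]
      simp [Matrix.one_apply, eq_comm]
    have hzz : z * z = 1 := by
      have h3 := hAB
      rw [e1, e2, Matrix.smul_mul, Matrix.mul_smul, Matrix.one_mul, smul_smul] at h3
      have h4 := congrFun (congrFun h3 ⟨0, hd⟩) ⟨0, hd⟩
      simpa using h4
    have hzr : z ^ r = 1 := by
      have h3 := hAr
      rw [e1, smul_pow, one_pow] at h3
      have h4 := congrFun (congrFun h3 ⟨0, hd⟩) ⟨0, hd⟩
      simpa using h4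
    have hz1 : z = 1 := by
      obtain ⟨k, hk⟩ := hrodd
      have h3 : z ^ r = z := by
        rw [hk, pow_succ, pow_mul, pow_two, hzz, one_pow, one_mul]
      rw [← h3, hzr]
    rw [hz1, one_smul] at e1
    rw [e1, sub_self, Matrix.rank_zero] at hrankA
    omega
  · rw [hrank]
    obtain ⟨k, hk⟩ := hio
    omega

/-- [DERODD] -/
theorem pkgDerOdd : PkgDerOdd.{u} := by
  intro F _ _ p _ _ hqodd d r hr hr2 hrp hio hid
  classical
  have hp : p.Prime := Fact.out
  have hrq : ¬ r ∣ Fintype.card F := by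
    intro h
    obtain ⟨f, -, hf⟩ := FiniteField.card F p
    rw [hf] at h
    exact hrp ((Nat.prime_dvd_prime_iff_eq hr hp).1 (hr.dvd_of_dvd_pow h))
  have h2 : (2 : F) ≠ 0 := by
    apply Ring.two_ne_zero
    intro h
    have h3 := FiniteField.even_card_of_char_two h
    rw [Nat.odd_iff] at hqodd
    omega
  obtain ⟨M, hMr, hMdet⟩ := Cfsg.Agent.Lib.Helper12.OHyp.exists_block_GL (F := F) r hr hrq
  exact derang_of_block h2 d r _ hr hr2 hio hid M hMr hMdet

end Cfsg.Agent.Lib.Helper3.OFX
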